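import Cfsg.Prelude.Def_Sporadic_a

/-! Counting blocks in Steiner systems. -/

set_option autoImplicit false

namespace Cfsg.Agent.Steiner

open Cfsg Finset

variable {α : Type*} [Fintype α] [DecidableEq α]

open Classical in
/-- the blocks satisfying a predicate -/
noncomputable def blk (B : Set (Finset α)) (P : Finset α → Prop) : Finset (Finset α) :=
  univ.filter fun c => c ∈ B ∧ P c

theorem mem_blk {B : Set (Finset α)} {P : Finset α → Prop} {c : Finset α} :
    c ∈ blk B P ↔ c ∈ B ∧ P c := by simp [blk]

theorem ncard_eq_blk (B : Set (Finset α)) (P : Finset α → Prop) :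
    {c | c ∈ B ∧ P c}.ncard = (blk B P).card := by
  rw [← Set.ncard_coe_finset]; congr 1; ext c; simp [mem_blk]

theorem lam_step {B : Set (Finset α)} {k l : ℕ} (hk : ∀ b ∈ B, b.card = k) (s : Finset α)
    (h : ∀ q ∉ s, (blk B (insert q s ⊆ ·)).card = l) :
    (blk B (s ⊆ ·)).card * (k - s.card) = (Fintype.card α - s.card) * l := by
  classical
  have := Finset.card_mul_eq_card_mul (s := blk B (s ⊆ ·)) (t := sᶜ) (fun c q => q ∈ c)
    (m := k - s.card) (n := l) (fun c hc => by
      obtain ⟨h1, h2⟩ := mem_blk.1 hc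
      rw [← hk c h1, ← card_sdiff_of_subset h2]
      congr 1; ext q; simp [bipartiteAbove, and_comm]) (fun q hq => by
      rw [← h q (mem_compl.1 hq)]
      congr 1; ext c; simp [bipartiteBelow, mem_blk, insert_subset_iff]; tauto)
  rwa [card_compl] at this

theorem lam_top {B : Set (Finset α)} {t k : ℕ} (hB : IsSteinerSystem t k B) {s : Finset α}
    (hs : s.card = t) : (blk B (s ⊆ ·)).card = 1 := by
  obtain ⟨b, hb, hu⟩ := hB.2 s hs
  rw [card_eq_one]
  exact ⟨b, eq_singleton_iff_unique_mem.2 ⟨mem_blk.2 hb, fun c hc => hu c (mem_blk.1 hc)⟩⟩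

theorem lam_of {B : Set (Finset α)} {k l l' j : ℕ} (hk : ∀ b ∈ B, b.card = k)
    (h : ∀ s : Finset α, s.card = j + 1 → (blk B (s ⊆ ·)).card = l) (hj : j < k)
    (e : l' * (k - j) = (Fintype.card α - j) * l) (s : Finset α) (hs : s.card = j) :
    (blk B (s ⊆ ·)).card = l' := by
  have := lam_step hk s fun q hq => h _ (by rw [card_insert_of_notMem hq, hs])
  rw [hs, ← e] at this
  exact Nat.eq_of_mul_eq_mul_right (by omega) this

theorem lam_block {B : Set (Finset α)} {k : ℕ} (hk : ∀ b ∈ B, b.card = k) {b : Finset α}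
    (hb : b ∈ B) : (blk B (b ⊆ ·)).card = 1 := by
  rw [card_eq_one]
  refine ⟨b, eq_singleton_iff_unique_mem.2 ⟨mem_blk.2 ⟨hb, subset_rfl⟩, fun c hc => ?_⟩⟩
  obtain ⟨h1, h2⟩ := mem_blk.1 hc
  exact (eq_of_subset_of_card_le h2 (by rw [hk c h1, hk b hb])).symm

/-- the intersection numbers with a fixed set `b` are determined by the numbers of blocks
through its subsets -/
theorem triangle {B : Set (Finset α)} (b : Finset α) (lam g : ℕ → ℕ)
    (h : ∀ s ⊆ b, (blk B (s ⊆ ·)).card = lam s.card)
    (e : ∀ j ≤ b.card, ∑ m ∈ range (b.card - j + 1), (b.card - j).choose m * g (j + m) = lam j) :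
    ∀ s ⊆ b, (blk B (b ∩ · = s)).card = g s.card := by
  intro s hs
  induction hn : b.card - s.card using Nat.strong_induction_on generalizing s with
  | _ n ih =>
    have h1 : (blk B (s ⊆ ·)).card =
        ∑ u ∈ (b \ s).powerset, (blk B (b ∩ · = s ∪ u)).card := by
      rw [card_eq_sum_card_fiberwise (f := fun c => (b ∩ c) \ s) (t := (b \ s).powerset)
        (fun c _ => by
          rw [mem_coe, mem_powerset]
          exact sdiff_subset_sdiff inter_subset_left subset_rfl)]
      refine sum_congr rfl fun u hu => ?_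
      rw [mem_powerset] at hu
      congr 1
      ext c
      simp only [mem_filter, mem_blk, and_assoc]
      refine and_congr_right fun _ => ⟨fun ⟨a1, a2⟩ => ?_, fun a => ⟨?_, ?_⟩⟩
      · rw [← a2, union_sdiff_of_subset (subset_inter hs a1)]
      · exact (subset_union_left.trans a.ge).trans inter_subset_right
      · rw [a, union_sdiff_cancel_left]
        exact disjoint_of_subset_right hu disjoint_sdiff
    have h2 : ∑ u ∈ (b \ s).powerset, g (s.card + u.card) = lam s.card := by
      rw [sum_powerset_apply_card (fun m => g (s.card + m)), card_sdiff_of_subset hs,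
        ← e _ (card_le_card hs)]
      rfl
    rw [h s hs, ← h2, ← add_sum_erase _ _ (empty_mem_powerset _),
      ← add_sum_erase _ _ (empty_mem_powerset _)] at h1
    have h3 : ∑ u ∈ (b \ s).powerset.erase ∅, g (s.card + u.card) =
        ∑ u ∈ (b \ s).powerset.erase ∅, (blk B (b ∩ · = s ∪ u)).card := by
      refine sum_congr rfl fun u hu => ?_
      rw [mem_erase, mem_powerset] at hu
      have hd : Disjoint s u := disjoint_of_subset_right hu.2 disjoint_sdiff
      have hsub : s ∪ u ⊆ b := union_subset hs (hu.2.trans sdiff_subset)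
      have hc := card_le_card hsub
      have hp := card_pos.2 (nonempty_iff_ne_empty.2 hu.1)
      rw [← card_union_of_disjoint hd]
      rw [card_union_of_disjoint hd] at hc
      exact (ih _ (by rw [card_union_of_disjoint hd]; omega) _ hsub rfl).symm
    rw [h3, union_empty, card_empty, add_zero] at h1
    omega

end Cfsg.Agent.Steiner
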