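import Cfsg.Agent.Lib.Steiner.Basic
import Cfsg.Agent.Lib.Golay.Basic
import Cfsg.Agent.Lib.PG.Graph

/-! Uniqueness of the Steiner system `S(3, 6, 22)`. -/

set_option autoImplicit false
set_option maxRecDepth 100000
set_option exponentiation.threshold 100000
set_option linter.unusedSectionVars false

namespace Cfsg.Agent.Steiner

open Cfsg Cfsg.Agent.PG
open Cfsg.Agent.Golay (pc)

variable {α : Type*} [Fintype α] [DecidableEq α] {B : Set (Finset α)}

theorem lam22 (hα : Fintype.card α = 22) (hB : IsSteinerSystem 3 6 B) :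
    (∀ s : Finset α, s.card = 0 → (blk B (s ⊆ ·)).card = 77) ∧
    ∀ b ∈ B, ∀ c ∈ B, (b ∩ c).card = 0 ∨ (b ∩ c).card = 2 ∨ b = c := by
  have h3 : ∀ s : Finset α, s.card = 3 → (blk B (s ⊆ ·)).card = 1 := fun s hs => lam_top hB hs
  have h2 := lam_of (l' := 5) hB.1 h3 (by omega) (by rw [hα])
  have h1 := lam_of (l' := 21) hB.1 h2 (by omega) (by rw [hα])
  have h0 := lam_of (l' := 77) hB.1 h1 (by omega) (by rw [hα])
  refine ⟨h0, fun b hb c hc => ?_⟩
  have h6 := hB.1 b hb
  have key := triangle (B := B) b (fun j => [77, 21, 5].getD j 1)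
    (fun j => [16, 0, 4, 0, 0, 0, 1].getD j 0) (fun s hs => by
      by_cases h : 3 ≤ s.card
      · have e : [77, 21, 5].getD s.card 1 = 1 := List.getD_eq_default _ _ h
        rw [e, Finset.card_eq_one]
        refine ⟨b, Finset.eq_singleton_iff_unique_mem.2 ⟨mem_blk.2 ⟨hb, hs⟩, fun c hc => ?_⟩⟩
        obtain ⟨t, ht, htc⟩ := Finset.exists_subset_card_eq h
        exact (hB.2 t htc).unique ⟨(mem_blk.1 hc).1, ht.trans (mem_blk.1 hc).2⟩ ⟨hb, ht.trans hs⟩
      · generalize e : s.card = j at h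
        have : j < 3 := by omega
        interval_cases j
        · exact h0 s e
        · exact h1 s e
        · exact h2 s e) (by rw [h6]; decide)
  have h7 := key (b ∩ c) Finset.inter_subset_left
  have h8 : 0 < (blk B (b ∩ · = b ∩ c)).card := Finset.card_pos.2 ⟨c, mem_blk.2 ⟨hc, rfl⟩⟩
  have h9 : (b ∩ c).card ≤ 6 := h6 ▸ Finset.card_le_card Finset.inter_subset_left
  have h10 : (b ∩ c).card = 6 → b = c := fun h =>
    (Finset.eq_of_subset_of_card_le Finset.inter_subset_left (by omega)).symm.trans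
      (Finset.eq_of_subset_of_card_le Finset.inter_subset_right (by rw [hB.1 c hc, h]))
  rw [h7] at h8
  generalize (b ∩ c).card = j at h8 h9 h10
  interval_cases j <;> simp at h8 ⊢
  exact h10 rfl

/-- the set of points with labels in the mask -/
def im (f : ℕ → α) (m : ℕ) : Finset α :=
  ((Finset.range 22).filter fun i => m.testBit i = true).image f

/-- a labelling of the points -/
structure Lab (f : ℕ → α) : Prop where
  inj : ∀ i < 22, ∀ j < 22, f i = f j → i = j
  surj : ∀ a, ∃ i < 22, f i = a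

variable {f : ℕ → α}

omit [Fintype α] in
theorem Lab.mem_im (h : Lab f) {i m : ℕ} (hi : i < 22) : f i ∈ im f m ↔ m.testBit i = true := by
  simp only [im, Finset.mem_image, Finset.mem_filter, Finset.mem_range]
  exact ⟨fun ⟨j, hj, e⟩ => h.inj j hj.1 i hi e ▸ hj.2, fun h1 => ⟨i, ⟨hi, h1⟩, rfl⟩⟩

omit [Fintype α] in
theorem Lab.ext (h : Lab f) {s t : Finset α} (e : ∀ i < 22, f i ∈ s ↔ f i ∈ t) : s = t := by
  ext a
  obtain ⟨i, hi, rfl⟩ := h.surj a
  exact e i hi

omit [Fintype α] in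
theorem Lab.card_im (h : Lab f) {m : ℕ} (hm : m < 2 ^ 22) : (im f m).card = pc m := by
  rw [← Golay.card_ofMask, Golay.card_ofMask_eq_cnt, im, Finset.card_image_of_injOn
    fun i hi j hj e => h.inj i (by simp at hi; exact hi.1) j (by simp at hj; exact hj.1) e]
  unfold cnt
  congr 1
  ext i
  simp only [Finset.mem_filter, Finset.mem_range]
  refine and_congr_left fun hi => ⟨fun _ => by omega, fun _ => ?_⟩
  by_contra h1
  have : 2 ^ 22 ≤ 2 ^ i := Nat.pow_le_pow_right (by norm_num) (by omega)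
  rw [Nat.testBit_eq_false_of_lt (by omega)] at hi
  cases hi

omit [Fintype α] in
theorem Lab.im_and (h : Lab f) (a b : ℕ) : im f (a &&& b) = im f a ∩ im f b :=
  h.ext fun i hi => by
    rw [Finset.mem_inter, h.mem_im hi, h.mem_im hi, h.mem_im hi, Nat.testBit_and, Bool.and_eq_true]

omit [Fintype α] in
theorem Lab.im_inj (h : Lab f) {a b : ℕ} (ha : a < 2 ^ 22) (hb : b < 2 ^ 22) (e : im f a = im f b) :
    a = b := by
  apply Nat.eq_of_testBit_eq
  intro i
  by_cases hi : i < 22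
  · rw [Bool.eq_iff_iff, ← h.mem_im hi, ← h.mem_im hi, e]
  · have : 2 ^ 22 ≤ 2 ^ i := Nat.pow_le_pow_right (by norm_num) (by omega)
    rw [Nat.testBit_eq_false_of_lt (by omega), Nat.testBit_eq_false_of_lt (by omega)]

theorem allL_of' {β : Type} {l : List β} {p : β → Bool} (h : ∀ a ∈ l, p a = true) :
    allL l p = true := by
  induction l with
  | nil => rfl
  | cons a l ih =>
    show andB (p a) (allL l p) = true
    rw [andB_eq, h a List.mem_cons_self, ih fun b hb => h b (List.mem_cons_of_mem _ hb)]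
    rfl

/-- compatibility with known blocks -/
noncomputable def okK (kn : List ℕ) (m : ℕ) : Bool :=
  allL kn fun k => force (pc (Nat.land m k)) fun c =>
    orB (Nat.beq c 2) (orB (Nat.beq c 0) (Nat.beq c 6))

/-- the only compatible 6-set through `t` is `m` -/
noncomputable def stepB (kn : List ℕ) (t m : ℕ) : Bool :=
  andB (Nat.blt t 4194304) <| andB (Nat.beq (pc t) 3) <|
    allN 22 fun a => orB (bit t a) <| force (Nat.lor t (Nat.shiftLeft 1 a)) fun ta =>
    allN a fun b => orB (bit t b) <| force (Nat.lor ta (Nat.shiftLeft 1 b)) fun tb =>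
    allN b fun c => orB (bit t c) <| force (Nat.lor tb (Nat.shiftLeft 1 c)) fun x =>
      orB (Nat.beq x m) (Bool.not (okK kn x))

theorem step_spec (hα : Fintype.card α = 22) (hB : IsSteinerSystem 3 6 B) (h : Lab f)
    {kn : List ℕ} (hk : ∀ k ∈ kn, im f k ∈ B ∧ k < 2 ^ 22) {t m : ℕ} (hs : stepB kn t m = true) :
    im f m ∈ B ∧ m < 2 ^ 22 := by
  unfold stepB at hs
  simp only [andB_eq, Bool.and_eq_true, Nat.blt_eq, Nat.beq_eq] at hs
  obtain ⟨ht, h3, hs⟩ := hs
  have ht' : t < 2 ^ 22 := ht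
  have hc : (im f t).card = 3 := by rw [h.card_im ht', h3]
  obtain ⟨s, ⟨hsB, hts⟩, -⟩ := hB.2 _ hc
  have key : ∀ a < 22, ∀ b < a, ∀ c < b, f a ∉ im f t → f b ∉ im f t → f c ∉ im f t →
      (∀ p, p ∈ s ↔ p ∈ im f t ∨ p = f a ∨ p = f b ∨ p = f c) → im f m ∈ B ∧ m < 2 ^ 22 := by
    intro a ha b hb c hc na nb nc e
    rw [h.mem_im (by omega)] at na nb nc
    have h1 := allN_spec hs a ha
    rw [orB_eq, Bool.or_eq_true, bit_eq, force_eq] at h1
    have h2 := allN_spec (h1.resolve_left na) b hb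
    rw [orB_eq, Bool.or_eq_true, bit_eq, force_eq] at h2
    have h4 := allN_spec (h2.resolve_left nb) c hc
    rw [orB_eq, Bool.or_eq_true, bit_eq, force_eq, orB_eq, Bool.or_eq_true, Nat.beq_eq] at h4
    have h5 := h4.resolve_left nc
    change t ||| 1 <<< a ||| 1 <<< b ||| 1 <<< c = m ∨
      (!okK kn (t ||| 1 <<< a ||| 1 <<< b ||| 1 <<< c)) = true at h5
    have hp : ∀ i < 22, 1 <<< i < 2 ^ 22 := fun i hi => by
      rw [Nat.one_shiftLeft]; exact Nat.pow_lt_pow_right (by norm_num) hi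
    have hx : t ||| 1 <<< a ||| 1 <<< b ||| 1 <<< c < 2 ^ 22 := Nat.or_lt_two_pow
      (Nat.or_lt_two_pow (Nat.or_lt_two_pow ht' (hp a ha)) (hp b (by omega))) (hp c (by omega))
    have e2 : im f (t ||| 1 <<< a ||| 1 <<< b ||| 1 <<< c) = s := h.ext fun i hi => by
      rw [e, h.mem_im hi, h.mem_im hi]
      simp only [Nat.testBit_or, Nat.one_shiftLeft, Nat.testBit_two_pow, Bool.or_eq_true,
        decide_eq_true_iff, or_assoc]
      have h6 : ∀ j < 22, (j = i ↔ f i = f j) := fun j hj =>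
        ⟨fun e => by rw [e], fun e => (h.inj _ hi _ hj e).symm⟩
      rw [h6 a ha, h6 b (by omega), h6 c (by omega)]
    rcases h5 with h5 | h5
    · rw [← h5, e2]; exact ⟨hsB, hx⟩
    · rw [Bool.not_eq_true', ← Bool.not_eq_true] at h5
      refine absurd (allL_of' fun k hk' => ?_) h5
      rw [force_eq, show ∀ y, Nat.land y k = y &&& k from fun _ => rfl, ← h.card_im (show _ &&& k < _ from lt_of_le_of_lt Nat.and_le_right (hk k hk').2),
        h.im_and, e2]
      simp only [orB_eq, Bool.or_eq_true, Nat.beq_eq]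
      rcases (lam22 hα hB).2 s hsB _ (hk k hk').1 with h6 | h6 | h6
      · exact Or.inr (Or.inl h6)
      · exact Or.inl h6
      · exact Or.inr (Or.inr (by rw [← h6, Finset.inter_self, hB.1 s hsB]))
  obtain ⟨x, y, z, n1, n2, n3, e⟩ := Finset.card_eq_three.1
    (show (s \ im f t).card = 3 by rw [Finset.card_sdiff_of_subset hts, hB.1 s hsB, hc])
  obtain ⟨a, ha, rfl⟩ := h.surj x
  obtain ⟨b, hb, rfl⟩ := h.surj y
  obtain ⟨c, hc, rfl⟩ := h.surj z
  have m1 : ∀ p, p ∈ s ∧ p ∉ im f t ↔ p = f a ∨ p = f b ∨ p = f c := fun p => by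
    rw [← Finset.mem_sdiff, e]; simp
  have na := ((m1 _).2 (Or.inl rfl)).2
  have nb := ((m1 _).2 (Or.inr (Or.inl rfl))).2
  have nc := ((m1 _).2 (Or.inr (Or.inr rfl))).2
  have m2 : ∀ p, p ∈ s ↔ p ∈ im f t ∨ p = f a ∨ p = f b ∨ p = f c := fun p => by
    rw [← m1]; have := @hts p; tauto
  have d1 : a ≠ b := fun e => n1 (by rw [e])
  have d2 : a ≠ c := fun e => n2 (by rw [e])
  have d3 : b ≠ c := fun e => n3 (by rw [e])
  rcases (by omega : (c < b ∧ b < a) ∨ (b < c ∧ c < a) ∨ (c < a ∧ a < b) ∨ (a < c ∧ c < b) ∨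
    (b < a ∧ a < c) ∨ (a < b ∧ b < c)) with l | l | l | l | l | l
  · exact key a ha b l.2 c l.1 na nb nc m2
  · exact key a ha c l.2 b l.1 na nc nb fun p => by rw [m2]; tauto
  · exact key b hb a l.2 c l.1 nb na nc fun p => by rw [m2]; tauto
  · exact key b hb c l.2 a l.1 nb nc na fun p => by rw [m2]; tauto
  · exact key c hc a l.2 b l.1 nc na nb fun p => by rw [m2]; tauto
  · exact key c hc b l.2 a l.1 nc nb na fun p => by rw [m2]; tauto

/-- a sequence of forced blocks -/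
noncomputable def stepsB (st : List (ℕ × ℕ)) : List ℕ → Bool :=
  List.rec (motive := fun _ => List ℕ → Bool) (fun _ => true)
    (fun q _ ih kn => andB (stepB kn q.1 q.2) (ih (q.2 :: kn))) st

theorem steps_spec (hα : Fintype.card α = 22) (hB : IsSteinerSystem 3 6 B) (h : Lab f)
    {st : List (ℕ × ℕ)} {kn : List ℕ} (hk : ∀ k ∈ kn, im f k ∈ B ∧ k < 2 ^ 22)
    (hs : stepsB st kn = true) : ∀ k ∈ (st.map Prod.snd).reverse ++ kn, im f k ∈ B ∧ k < 2 ^ 22 := by
  induction st generalizing kn with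
  | nil => simpa using hk
  | cons q st ih =>
    have hs' : andB (stepB kn q.1 q.2) (stepsB st (q.2 :: kn)) = true := hs
    rw [andB_eq, Bool.and_eq_true] at hs'
    simp only [List.map_cons, List.reverse_cons, List.append_assoc, List.singleton_append]
    refine ih (fun k hk' => ?_) hs'.2
    rcases List.mem_cons.1 hk' with rfl | hk'
    · exact step_spec hα hB h hk hs'.1
    · exact hk k hk'

def K0 : List ℕ := [63, 963, 7237, 57417, 458833, 3670113, 598086, 1180746, 2115666, 299106, 2359500, 1081684, 148068, 528984, 67944, 9456]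
def St : List (ℕ × ℕ) := [(1027, 2368515), (2051, 1148931), (4099, 675843), (133, 1187973), (261, 2179333), (517, 819717), (137, 590985), (265, 1315081), (521, 2230793), (145, 2134161), (273, 534801), (529, 1066513), (161, 280737), (289, 165153), (545, 78369), (134, 50310), (262, 395526), (518, 3150342), (138, 14474), (266, 2654474), (522, 344586), (146, 1835154), (274, 70930), (530, 172562), (162, 2293922), (290, 1073442), (546, 527906), (268, 9996), (2060, 1591308), (4108, 233484), (148, 68244), (1044, 2753556), (4116, 290836), (164, 528804), (1060, 1377316), (2084, 2140196), (152, 147864), (1048, 298008), (8216, 3219480), (168, 1082024), (1064, 2118696), (8232, 925736), (304, 2360112), (2096, 1185840), (16432, 639024), (2240, 690368), (4288, 1134784), (1344, 804160), (4416, 2240832), (1600, 2197056), (2624, 1321536), (1408, 3149184), (8576, 369024), (1664, 398976), (8832, 2646656), (2816, 56064), (66304, 1770240), (11264, 224256), (13312,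 1618944), (71680, 2955264), (180224, 3588096)]
/-- the blocks of the standard system -/
def SL : List ℕ := [63, 963, 7237, 9456, 9996, 14474, 50310, 56064, 57417, 67944, 68244, 70930, 78369, 147864, 148068, 165153, 172562, 224256, 233484, 280737, 290836, 298008, 299106, 344586, 369024, 395526, 398976, 458833, 527906, 528804, 528984, 534801, 590985, 598086, 639024, 675843, 690368, 804160, 819717, 925736, 1066513, 1073442, 1081684, 1082024, 1134784, 1148931, 1180746, 1185840, 1187973, 1315081, 1321536, 1377316, 1591308, 1618944, 1770240, 1835154, 2115666, 2118696, 2134161, 2140196, 2179333, 2197056, 2230793, 2240832, 2293922, 2359500, 2360112, 2368515, 2646656, 2654474, 2753556, 2955264, 3149184, 3150342, 3219480, 3588096, 3670113]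

theorem St_ok : stepsB St K0 = true := by decide +kernel

/-- partners in the fifteen synthemes -/
def prt (a : Fin 15) (i : Fin 6) : Fin 6 := ([[1, 0, 3, 2, 5, 4], [1, 0, 4, 5, 2, 3], [1, 0, 5, 4, 3, 2], [2, 3, 0, 1, 5, 4], [2, 4, 0, 5, 1, 3], [2, 5, 0, 4, 3, 1], [3, 2, 1, 0, 5, 4], [3, 4, 5, 0, 1, 2], [3, 5, 4, 0, 2, 1], [4, 2, 1, 5, 0, 3], [4, 3, 5, 1, 0, 2], [4, 5, 3, 2, 0, 1], [5, 2, 1, 4, 3, 0], [5, 3, 4, 1, 2, 0], [5, 4, 3, 2, 1, 0]].getD a []).getD i 0
def k2 (a : Fin 15) : Fin 6 := [2, 2, 2, 1, 1, 1, 1, 1, 1, 1, 1, 1, 1, 1, 1].getD a 0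

theorem exists_lab (hα : Fintype.card α = 22) (hB : IsSteinerSystem 3 6 B) :
    ∃ f : ℕ → α, Lab f ∧ ∀ k ∈ K0, im f k ∈ B := by
  obtain ⟨h0, hI⟩ := lam22 hα hB
  obtain ⟨b0, hb0⟩ := Finset.card_pos.1 (show 0 < (blk B (∅ ⊆ ·)).card by rw [h0 _ rfl]; omega)
  replace hb0 := (mem_blk.1 hb0).1
  have h6 := hB.1 b0 hb0
  let x : Fin 6 → α := fun i => (b0.equivFinOfCardEq h6).symm i
  have xi : Function.Injective x := fun i j e =>
    (b0.equivFinOfCardEq h6).symm.injective (Subtype.ext e)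
  have xm : ∀ i, x i ∈ b0 := fun i => ((b0.equivFinOfCardEq h6).symm i).2
  have xs : ∀ p ∈ b0, ∃ i, x i = p := fun p hp =>
    ⟨b0.equivFinOfCardEq h6 ⟨p, hp⟩, by simp [x]⟩
  clear_value x
  obtain ⟨u, hu⟩ := Finset.card_pos.1 (show 0 < b0ᶜ.card by rw [Finset.card_compl, hα, h6]; omega)
  rw [Finset.mem_compl] at hu
  have three : ∀ p q r : α, p ≠ q → p ≠ r → q ≠ r → ∃ c ∈ B, p ∈ c ∧ q ∈ c ∧ r ∈ c :=
    fun p q r n1 n2 n3 => by
      obtain ⟨c, ⟨h1, h2⟩, -⟩ := hB.2 {p, q, r} (Finset.card_eq_three.2 ⟨p, q, r, n1, n2, n3, rfl⟩)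
      exact ⟨c, h1, h2 (by simp), h2 (by simp), h2 (by simp)⟩
  have uniq : ∀ c ∈ B, ∀ c' ∈ B, ∀ p q r : α, p ≠ q → p ≠ r → q ≠ r → p ∈ c → q ∈ c → r ∈ c →
      p ∈ c' → q ∈ c' → r ∈ c' → c = c' := fun c hc c' hc' p q r n1 n2 n3 a1 a2 a3 b1 b2 b3 =>
    (hB.2 {p, q, r} (Finset.card_eq_three.2 ⟨p, q, r, n1, n2, n3, rfl⟩)).unique
      ⟨hc, by simp [Finset.insert_subset_iff, a1, a2, a3]⟩
      ⟨hc', by simp [Finset.insert_subset_iff, b1, b2, b3]⟩
  have two : ∀ c ∈ B, ∀ c' ∈ B, c ≠ c' → ∀ p ∈ c, p ∈ c' → ∃ q, q ≠ p ∧ q ∈ c ∧ q ∈ c' :=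
    fun c hc c' hc' n p h1 h2 => by
      have hp : p ∈ c ∩ c' := Finset.mem_inter.2 ⟨h1, h2⟩
      have := Finset.card_pos.2 ⟨p, hp⟩
      obtain ⟨q, hq, hne⟩ := Finset.exists_mem_ne (s := c ∩ c')
        (by rcases hI c hc c' hc' with h | h | h; omega; omega; exact absurd h n) p
      exact ⟨q, hne, Finset.mem_inter.1 hq⟩
  have xu : ∀ i, x i ≠ u := fun i e => hu (e ▸ xm i)
  -- `R w i j`: a block contains `u, w, x i, x j`
  let R : α → Fin 6 → Fin 6 → Prop := fun w i j => ∃ c ∈ B, u ∈ c ∧ w ∈ c ∧ x i ∈ c ∧ x j ∈ c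
  have Rs : ∀ w i j, R w i j → R w j i := fun w i j ⟨c, h1, h2, h3, h4, h5⟩ => ⟨c, h1, h2, h3, h5, h4⟩
  have no3 : ∀ c ∈ B, u ∈ c → ∀ i j k, i ≠ j → i ≠ k → x i ∈ c → x j ∈ c → x k ∈ c → j = k :=
    fun c hc huc i j k n1 n2 a1 a2 a3 => by
      by_contra n3
      exact hu (uniq c hc b0 hb0 _ _ _ (xi.ne n1) (xi.ne n2) (xi.ne n3) a1 a2 a3 (xm _) (xm _)
        (xm _) ▸ huc)
  have Ru : ∀ w, w ∉ b0 → w ≠ u → ∀ i j k, i ≠ j → i ≠ k → R w i j → R w i k → j = k := by
    rintro w hw hwu i j k n1 n2 ⟨c, h1, h2, h3, h4, h5⟩ ⟨c', g1, g2, g3, g4, g5⟩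
    have := uniq c h1 c' g1 u w (x i) hwu.symm (xu i).symm (fun e => hw (e ▸ xm i)) h2 h3 h4 g2 g3 g4
    subst this
    exact no3 c h1 h2 i j k n1 n2 h4 h5 g5
  have Re : ∀ w, w ∉ b0 → w ≠ u → ∀ i, ∃ j, i ≠ j ∧ R w i j := fun w hw hwu i => by
    obtain ⟨c, h1, h2, h3, h4⟩ := three u w (x i) hwu.symm (xu i).symm (fun e => hw (e ▸ xm i))
    obtain ⟨q, n, q1, q2⟩ := two c h1 b0 hb0 (fun e => hu (e ▸ h2)) _ h4 (xm i)
    obtain ⟨j, rfl⟩ := xs q q2
    exact ⟨j, fun e => n (by rw [e]), c, h1, h2, h3, h4, q1⟩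
  have pne : ∀ a i, i ≠ prt a i := by decide
  have hv : ∀ a : Fin 15, ∃ w, w ∉ b0 ∧ w ≠ u ∧ ∀ i, R w i (prt a i) := fun a => by
    have d : ∀ a, (0 : Fin 6) ≠ k2 a ∧ prt a 0 ≠ k2 a ∧ (0 : Fin 6) ≠ prt a (k2 a) ∧
      prt a 0 ≠ prt a (k2 a) := by decide
    obtain ⟨d1, d2, d3, d4⟩ := d a
    obtain ⟨c, h1, h2, h3, h4⟩ := three u (x 0) (x (prt a 0)) (xu _).symm (xu _).symm
      (xi.ne (pne a 0))
    obtain ⟨c', g1, g2, g3, g4⟩ := three u (x (k2 a)) (x (prt a (k2 a))) (xu _).symm (xu _).symm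
      (xi.ne (pne a _))
    obtain ⟨w, n, w1, w2⟩ := two c h1 c' g1
      (fun e => d2 (no3 c h1 h2 _ _ _ (pne a 0) d1 h3 h4 (e ▸ g3))) u h2 g2
    have hw : w ∉ b0 := fun hw => by
      obtain ⟨j, rfl⟩ := xs w hw
      have e1 : j = 0 ∨ j = prt a 0 := by
        by_contra e
        rw [not_or] at e
        exact e.2 (no3 c h1 h2 0 _ _ (Ne.symm e.1) (pne a 0) h3 w1 h4)
      have e2 : j = k2 a ∨ j = prt a (k2 a) := by
        by_contra e
        rw [not_or] at e
        exact e.2 (no3 c' g1 g2 _ _ _ (Ne.symm e.1) (pne a _) g3 w2 g4)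
      rcases e1 with rfl | e1 <;> rcases e2 with e2 | e2
      · exact d1 e2
      · exact d3 e2
      · exact d2 (e1.symm.trans e2)
      · exact d4 (e1.symm.trans e2)
    refine ⟨w, hw, n, fun i => ?_⟩
    obtain ⟨j, nj, hj⟩ := Re w hw n i
    have r1 : R w 0 (prt a 0) := ⟨c, h1, h2, w1, h3, h4⟩
    have r2 : R w (k2 a) (prt a (k2 a)) := ⟨c', g1, g2, w2, g3, g4⟩
    have u1 : ∀ p q, p ≠ q → R w p q → (i = p → j = q) ∧ (j = p → i = q) := fun p q npq r =>
      ⟨fun e => Ru w hw n i j q nj (e ▸ npq) hj (e ▸ r),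
        fun e => Ru w hw n j i q nj.symm (e ▸ npq) (Rs _ _ _ hj) (e ▸ r)⟩
    have fin : ∀ a i j, i ≠ j → ((i = 0 → j = prt a 0) ∧ (j = 0 → i = prt a 0)) →
        ((i = prt a 0 → j = 0) ∧ (j = prt a 0 → i = 0)) →
        ((i = k2 a → j = prt a (k2 a)) ∧ (j = k2 a → i = prt a (k2 a))) →
        ((i = prt a (k2 a) → j = k2 a) ∧ (j = prt a (k2 a) → i = k2 a)) → j = prt a i := by
      decide +kernel
    rw [← fin a i j nj (u1 _ _ (pne a _) r1) (u1 _ _ (pne a _).symm (Rs _ _ _ r1))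
      (u1 _ _ (pne a _) r2) (u1 _ _ (pne a _).symm (Rs _ _ _ r2))]
    exact hj
  choose v v1 v2 v3 using hv
  have vi : Function.Injective v := fun a b e => by
    have d : ∀ a b, (∀ i, prt a i = prt b i) → a = b := by decide +kernel
    exact d a b fun i => Ru _ (v1 a) (v2 a) i _ _ (pne a i) (pne b i) (v3 a i) (e ▸ v3 b i)
  let f : ℕ → α := fun i => if i < 6 then x (Fin.ofNat 6 i) else if i = 6 then u
    else v (Fin.ofNat 15 (i - 7))
  have f1 : ∀ i : Fin 6, f i.val = x i := fun i => by simp [f]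
  have f2 : f 6 = u := rfl
  have f3 : ∀ a : Fin 15, f (a.val + 7) = v a := fun a => by simp [f]
  clear_value f
  have cases : ∀ i < 22, (∃ j : Fin 6, i = j.val) ∨ i = 6 ∨ ∃ a : Fin 15, i = a.val + 7 := by
    decide
  have finj : ∀ i < 22, ∀ j < 22, f i = f j → i = j := by
    intro i hi j hj e
    rcases cases i hi with ⟨i, rfl⟩ | rfl | ⟨i, rfl⟩ <;>
      rcases cases j hj with ⟨j, rfl⟩ | rfl | ⟨j, rfl⟩ <;> simp only [f1, f2, f3] at e
    · rw [xi e]
    · exact absurd e (xu _)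
    · exact absurd (e ▸ xm i) (v1 _)
    · exact absurd e.symm (xu _)
    · rfl
    · exact absurd e.symm (v2 _)
    · exact absurd (e ▸ xm j) (v1 _)
    · exact absurd e (v2 _)
    · rw [vi e]
  have hl : Lab f := ⟨finj, fun a => by
    have := (Fintype.bijective_iff_injective_and_card (fun i : Fin 22 => f i)).2
      ⟨fun i j e => Fin.ext (finj _ i.2 _ j.2 e), by rw [hα, Fintype.card_fin]⟩
    obtain ⟨i, e⟩ := this.2 a
    exact ⟨i, i.2, e⟩⟩
  refine ⟨f, hl, fun k hk => ?_⟩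
  have fin : ∀ c ∈ B, k < 2 ^ 22 → pc k = 6 → (∀ i < 22, k.testBit i = true → f i ∈ c) →
      im f k ∈ B := fun c hc h1 h2 h3 => by
    rw [Finset.eq_of_subset_of_card_le (s := im f k) (t := c) (fun p hp => by
      obtain ⟨i, hi, rfl⟩ := hl.surj p
      exact h3 i hi ((hl.mem_im hi).1 hp)) (by rw [hB.1 c hc, hl.card_im h1, h2])]
    exact hc
  have d : ∀ k ∈ K0, k < 2 ^ 22 ∧ pc k = 6 ∧ ((∀ i < 22, k.testBit i = true → ∃ j : Fin 6, i = j.val) ∨
      ∃ p q : Fin 6, p ≠ q ∧ ∀ i < 22, k.testBit i = true →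
        i = p.val ∨ i = q.val ∨ i = 6 ∨ ∃ a : Fin 15, i = a.val + 7 ∧ prt a p = q) := by decide +kernel
  obtain ⟨d1, d2, d3 | ⟨p, q, n, d3⟩⟩ := d k hk
  · refine fin b0 hb0 d1 d2 fun i hi h1 => ?_
    obtain ⟨j, rfl⟩ := d3 i hi h1
    rw [f1]; exact xm j
  · obtain ⟨c, h1, h2, h3, h4⟩ := three u (x p) (x q) (xu _).symm (xu _).symm (xi.ne n)
    refine fin c h1 d1 d2 fun i hi h5 => ?_
    rcases d3 i hi h5 with rfl | rfl | rfl | ⟨a, rfl, rfl⟩
    · rwa [f1]
    · rwa [f1]
    · rwa [f2]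
    · obtain ⟨c', g1, g2, g3, g4, g5⟩ := v3 a p
      rw [f3, uniq c h1 c' g1 _ _ _ (xu _).symm (xu _).symm (xi.ne n) h2 h3 h4 g2 g4 g5]
      exact g3

/-- every `S(3, 6, 22)` is the standard one -/
theorem exists_std (hα : Fintype.card α = 22) (hB : IsSteinerSystem 3 6 B) :
    ∃ f : ℕ → α, Lab f ∧ (∀ k ∈ SL, im f k ∈ B) ∧ ∀ b ∈ B, ∃ k ∈ SL, im f k = b := by
  obtain ⟨f, hf, h⟩ := exists_lab hα hB
  have h0 : ∀ k ∈ K0, k < 2 ^ 22 := by decide +kernel
  have h1 := steps_spec hα hB hf (fun k hk => ⟨h k hk, h0 k hk⟩) St_ok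
  have h2 : ∀ k ∈ SL, k ∈ (St.map Prod.snd).reverse ++ K0 := by decide +kernel
  refine ⟨f, hf, fun k hk => (h1 k (h2 k hk)).1, fun b hb => ?_⟩
  have h3 : SL.toFinset.image (im f) = blk B (∅ ⊆ ·) := by
    apply Finset.eq_of_subset_of_card_le
    · intro s hs
      obtain ⟨k, hk, rfl⟩ := Finset.mem_image.1 hs
      exact mem_blk.2 ⟨(h1 k (h2 k (List.mem_toFinset.1 hk))).1, Finset.empty_subset _⟩
    · rw [(lam22 hα hB).1 _ rfl, Finset.card_image_of_injOn fun a ha b hb e =>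
        hf.im_inj (h1 a (h2 a (List.mem_toFinset.1 ha))).2 (h1 b (h2 b (List.mem_toFinset.1 hb))).2 e,
        List.toFinset_card_of_nodup (by decide +kernel)]
      exact le_rfl
  obtain ⟨k, hk, e⟩ := Finset.mem_image.1 (h3 ▸ mem_blk.2 ⟨hb, Finset.empty_subset _⟩)
  exact ⟨k, List.mem_toFinset.1 hk, e⟩

/-- rows of the adjacency matrix of the Higman-Sims graph -/
def Rw : List ℕ := [0x7ffffe, 0x8042a0190a4c4044883800001, 0x11480c0310509608431800001, 0x1210c0c8221110a222a800001, 0x21121092440a0521198800001, 0x22202c0428264189604800001, 0x8028504454218246904800001, 0x80150822a1924202187000001, 0x8982408c0892841235000001, 0x924821031051805549000001, 0x10a302204a02a40aa49000001, 0xa4111420908a11442e000001, 0xc0248a500849150352000001, 0x14043114804322a0c52000001, 0x20c441281414089889c000001, 0x40809880996004d30e0000001, 0x4101610162a00b2c0e0000001, 0x2409824180384c30f00000001, 0x420e020e04c0703f000000001, 0x4470047007007fc0000000001, 0x8780078007ff8000000000001,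 0xf80007fff8000000000000001, 0xfffff80000000000000000001, 0x4c8503208180281004000007e, 0x660051c4042001b0000000786, 0x61a8060054200c0900000388a, 0x55028291024014200400049e0, 0xc4082c0580e04240000004e18, 0xc22182402b204006000007114, 0xa42602340406400090001890c, 0xa258044a0418400000481b600, 0x1e2806440001b00060001c092, 0x52c025080a4020880200212d0, 0xc144111215400204080021528, 0xc09240a846800042080022a24, 0x4b100c8221801101020026442, 0x9441416102108200802048330, 0x2d402511000c09004100484c8, 0x34900ca080120480210050a42, 0x8c1090d081090040102054424, 0x913024106203020000186d800, 0x88e00c2019048040005072018, 0x3305030220120028408089142, 0x890b02034088800410108e028, 0x908c820890510002801091830, 0x2a828288080c00112080920c4, 0x8a04610c208500040060a8414, 0x92021886084280020028b4300, 0xa0813100c82a00008840c120c, 0xa100c881303400001808c2d00, 0x19805180500180000780e00a2, 0x6014a018a00048a1080101c44, 0x6043082308004518080102348, 0x4848c049100018540201024b0,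 0x50191042c0002622020105222, 0x502448243000128a040120912, 0x482230144800214504012408c, 0x1856003a0000300001b138060, 0x283140606000090030c14a006, 0x3060905018000480c08951180, 0x300a600d40000028a10988a80, 0x280c18069000001151419040a, 0x1801a801a80000006631c4050, 0x51c400004911a20110208c22, 0x6132000028a612020220c244, 0x4ca10000448a4508102102a8, 0x644880001545090402210550, 0x36240000604910c008a2a180, 0x2b410000503208300c231006, 0x4a0e000022508c0a40240894, 0x1d1800003180c000a9243060, 0x52118000122870054024410a, 0x289480000b0801a224282212, 0x308b00000690025420a85480, 0x186280000c600090d12a0848, 0x6d200000006a0cc05309018, 0x3a880000005443301b16800, 0x507800000003c00b6b60600, 0x7d000000000369ca380124, 0x358460928248084090a4, 0x6292294580820140a850, 0x2e215109412108412122, 0x612894a6401401415048, 0x5264482a30801442820a, 0x49c144510c1010c30c80, 0x540b1310a80424441412, 0x4c14a288540220c46280, 0x1b02b0601800ca460144, 0x3051864801cc40480198, 0x18b80d800300b2480660,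 0x284e0a30023340484806, 0x5720005324502d0c500, 0x6c880060d2a06510214, 0x31d0000e409d1540828, 0xa7800000f0adda3000, 0x67246aa880e01b00, 0x5ac495518460240c, 0x3c1b246063624030, 0x1f8000f1fed8000, 0x3db96787000c2]

theorem Rw_ok : allN 100 (fun j => Nat.beq (Bool.toNat (bit (nthD 0 Rw 0) j))
      (Bool.toNat (andB (Nat.ble 1 j) (Nat.ble j 22)))) = true ∧
    allN 22 (fun i => force (nthD 0 Rw (Nat.succ i)) fun r => andB (bit r 0) <|
      andB (allN 22 fun j => Bool.not (bit r (Nat.succ j))) <|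
      allN 77 fun j => Nat.beq (Bool.toNat (bit r (Nat.add j 23)))
        (Bool.toNat (bit (nthD 63 SL j) i))) = true ∧
    allN 77 (fun i => force (nthD 0 Rw (Nat.add i 23)) fun r => force (nthD 63 SL i) fun m =>
      andB (Bool.not (bit r 0)) <|
      andB (allN 22 fun j => Nat.beq (Bool.toNat (bit r (Nat.succ j))) (Bool.toNat (bit m j))) <|
      allN 77 fun j => Nat.beq (Bool.toNat (bit r (Nat.add j 23)))
        (Bool.toNat (Nat.beq (Nat.land m (nthD 63 SL j)) 0))) = true := by decide +kernel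

theorem SL_mem (i : ℕ) : nthD 63 SL i ∈ SL := by
  rcases nthD_mem_or 63 SL i with h | h
  · rw [h]; decide
  · exact h

theorem toNat_beq {a b : Bool} (h : Nat.beq a.toNat b.toNat = true) : a = b := by
  revert h; cases a <;> cases b <;> decide

theorem exists_enum (hα : Fintype.card α = 22) (hB : IsSteinerSystem 3 6 B) :
    ∃ X, GEnum (pointBlockGraph B) 100 X Rw := by
  obtain ⟨f, hf, h1, h2⟩ := exists_std hα hB
  let X : ℕ → Option (α ⊕ B) := fun i => if i = 0 then none else if i ≤ 22 then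
    some (Sum.inl (f (i - 1))) else some (Sum.inr ⟨im f (nthD 63 SL (i - 23)), h1 _ (SL_mem _)⟩)
  have x0 : X 0 = none := rfl
  have x1 : ∀ i < 22, X (i + 1) = some (Sum.inl (f i)) := fun i hi => by
    simp [X, show i + 1 ≤ 22 by omega]
  have x2 : ∀ i, X (i + 23) = some (Sum.inr ⟨im f (nthD 63 SL i), h1 _ (SL_mem _)⟩) :=
    fun i => by simp [X]
  clear_value X
  have cases : ∀ i < 100, i = 0 ∨ (∃ j < 22, i = j + 1) ∨ ∃ j < 77, i = j + 23 := fun i hi => by
    by_cases h0 : i = 0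
    · exact Or.inl h0
    by_cases h : i ≤ 22
    · exact Or.inr (Or.inl ⟨i - 1, by omega, by omega⟩)
    · exact Or.inr (Or.inr ⟨i - 23, by omega, by omega⟩)
  have lt : ∀ k ∈ SL, k < 2 ^ 22 ∧ k ≠ 0 := by decide +kernel
  have inj : ∀ i < 77, ∀ j < 77, nthD 63 SL i = nthD 63 SL j → i = j := fun i hi j hj e => by
    rw [nthD_eq, nthD_eq, List.getD_eq_getElem _ _ hi, List.getD_eq_getElem _ _ hj] at e
    exact (List.Nodup.getElem_inj_iff (by decide +kernel)).1 e
  obtain ⟨r0, r1, r2⟩ := Rw_ok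
  have a0 : ∀ j < 100, (nthD 0 Rw 0).testBit j = true ↔ 1 ≤ j ∧ j ≤ 22 := fun j hj => by
    rw [← bit_eq, toNat_beq (allN_spec r0 j hj), andB_eq, Bool.and_eq_true, Nat.ble_eq, Nat.ble_eq]
  have a1 : ∀ i < 22, (nthD 0 Rw (i + 1)).testBit 0 = true ∧
      (∀ j < 22, (nthD 0 Rw (i + 1)).testBit (j + 1) = false) ∧
      ∀ j < 77, (nthD 0 Rw (i + 1)).testBit (j + 23) = (nthD 63 SL j).testBit i := fun i hi => by
    have := allN_spec r1 i hi
    simp only [force_eq, andB_eq, Bool.and_eq_true] at this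
    refine ⟨bit_eq _ _ ▸ this.1, fun j hj => ?_, fun j hj => ?_⟩
    · have := allN_spec this.2.1 j hj
      rwa [Bool.not_eq_true', bit_eq] at this
    · have := toNat_beq (allN_spec this.2.2 j hj)
      rwa [bit_eq, bit_eq] at this
  have a2 : ∀ i < 77, (nthD 0 Rw (i + 23)).testBit 0 = false ∧
      (∀ j < 22, (nthD 0 Rw (i + 23)).testBit (j + 1) = (nthD 63 SL i).testBit j) ∧
      ∀ j < 77, ((nthD 0 Rw (i + 23)).testBit (j + 23) = true ↔
        nthD 63 SL i &&& nthD 63 SL j = 0) := fun i hi => by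
    have := allN_spec r2 i hi
    simp only [force_eq, andB_eq, Bool.and_eq_true] at this
    refine ⟨?_, fun j hj => ?_, fun j hj => ?_⟩
    · have := this.1
      rwa [Bool.not_eq_true', bit_eq] at this
    · have := toNat_beq (allN_spec this.2.1 j hj)
      rwa [bit_eq, bit_eq] at this
    · have := toNat_beq (allN_spec this.2.2 j hj)
      rw [bit_eq] at this
      exact (Bool.eq_iff_iff.1 this).trans Nat.beq_eq.to_iff
  have dj : ∀ a b : ℕ, b < 2 ^ 22 → (Disjoint (im f a) (im f b) ↔ a &&& b = 0) := fun a b hb => by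
    rw [Finset.disjoint_iff_inter_eq_empty, ← hf.im_and]
    have e : im f 0 = ∅ := by simp [im]
    exact ⟨fun h => hf.im_inj (lt_of_le_of_lt Nat.and_le_right hb) (by norm_num) (h.trans e.symm),
      fun h => by rw [h, e]⟩
  refine ⟨X, fun i hi j hj e => ?_, fun v => ?_, fun i hi j hj => ?_⟩
  · rcases cases i hi with rfl | ⟨i, hi', rfl⟩ | ⟨i, hi', rfl⟩ <;>
      rcases cases j hj with rfl | ⟨j, hj', rfl⟩ | ⟨j, hj', rfl⟩
    · rfl
    · rw [x0, x1 _ hj'] at e; cases e
    · rw [x0, x2] at e; cases e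
    · rw [x0, x1 _ hi'] at e; cases e
    · rw [x1 _ hi', x1 _ hj'] at e
      rw [hf.inj _ hi' _ hj' (Sum.inl.inj (Option.some.inj e))]
    · rw [x1 _ hi', x2] at e; cases e
    · rw [x0, x2] at e; cases e
    · rw [x1 _ hj', x2] at e; cases e
    · rw [x2, x2] at e
      rw [inj _ hi' _ hj' (hf.im_inj (lt _ (SL_mem _)).1 (lt _ (SL_mem _)).1
        (congrArg Subtype.val (Sum.inr.inj (Option.some.inj e))))]
  · rcases v with _ | a | ⟨b, hb⟩
    · exact ⟨0, by omega, x0⟩
    · obtain ⟨i, hi, rfl⟩ := hf.surj a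
      exact ⟨i + 1, by omega, x1 i hi⟩
    · obtain ⟨k, hk, rfl⟩ := h2 b hb
      obtain ⟨i, hi, rfl⟩ := List.getElem_of_mem hk
      refine ⟨i + 23, by have : SL.length = 77 := rfl; omega, ?_⟩
      rw [x2]
      simp only [nthD_eq, List.getD_eq_getElem _ _ hi]
  · rw [pointBlockGraph, SimpleGraph.fromRel_adj]
    rcases cases i hi with rfl | ⟨i, hi', rfl⟩ | ⟨i, hi', rfl⟩ <;>
      rcases cases j hj with rfl | ⟨j, hj', rfl⟩ | ⟨j, hj', rfl⟩
    · rw [a0 _ (by omega)]; simp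
    · rw [a0 _ (by omega), x0, x1 _ hj']; simp [pointBlockRel]; omega
    · rw [a0 _ (by omega), x0, x2]; simp [pointBlockRel]
    · rw [(a1 _ hi').1, x0, x1 _ hi']; simp [pointBlockRel]
    · rw [(a1 _ hi').2.1 _ hj', x1 _ hi', x1 _ hj']; simp [pointBlockRel]
    · rw [(a1 _ hi').2.2 _ hj', x1 _ hi', x2, ← hf.mem_im hi']; simp [pointBlockRel]
    · rw [(a2 _ hi').1, x0, x2]; simp [pointBlockRel]
    · rw [(a2 _ hi').2.1 _ hj', x1 _ hj', x2, ← hf.mem_im hj']; simp [pointBlockRel]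
    · rw [(a2 _ hi').2.2 _ hj', x2, x2, ← dj _ _ (lt _ (SL_mem _)).1]
      simp only [pointBlockRel, ne_eq, Option.some.injEq, Sum.inr.injEq, Subtype.mk.injEq]
      refine ⟨fun h => h.2.elim id fun h => h.symm, fun h => ⟨fun e => ?_, Or.inl h⟩⟩
      rw [e, dj _ _ (lt _ (SL_mem _)).1, Nat.and_self] at h
      exact (lt _ (SL_mem _)).2 h

end Cfsg.Agent.Steiner
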